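import Cfsg.Agent.Lib.Helper99.X3.Defs

set_option autoImplicit false
open scoped MatrixGroups

namespace Cfsg.Agent.Lib.Helper99.X3

/-- a group of order `1`, `3` or `9` is commutative. -/
theorem A1b_comm {K : Type*} [Group K] (k : ℕ) (hk : k ≤ 2) (h : Nat.card K = 3 ^ k) (x y : K) :
    x * y = y * x := by
  haveI : Fact (Nat.Prime 3) := ⟨Nat.prime_three⟩
  interval_cases k
  · haveI : Subsingleton K := (Nat.card_eq_one_iff_unique.1 (by simpa using h)).1
    exact Subsingleton.elim _ _
  · haveI : IsCyclic K := isCyclic_of_prime_card (p := 3) (by simpa using h)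
    exact IsCyclic.commGroup.mul_comm x y
  · exact (IsPGroup.commutative_of_card_eq_prime_sq (p := 3) h) x y

theorem A1b {G : Type*} [Group G] (R : Subgroup G) (hR : Nat.card R = 27) (a b : G) (ha : a ∈ R) (hb : b ∈ R)
    (hab : a * b ≠ b * a) : R = Subgroup.closure {a, b} := by
  haveI : Finite R := Nat.finite_of_card_ne_zero (by rw [hR]; norm_num)
  set K : Subgroup G := Subgroup.closure {a, b} with hK
  have hle : K ≤ R := by
    rw [hK, Subgroup.closure_le]
    intro x hx
    rcases hx with rfl | hx
    · exact ha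
    · rw [Set.mem_singleton_iff] at hx
      subst hx
      exact hb
  have haK : a ∈ K := Subgroup.subset_closure (by simp)
  have hbK : b ∈ K := Subgroup.subset_closure (by simp)
  have hd : Nat.card K ∣ 3 ^ 3 := by
    have := Subgroup.card_dvd_of_le hle
    rw [hR] at this
    simpa using this
  obtain ⟨k, hk, hc⟩ := (Nat.dvd_prime_pow Nat.prime_three).1 hd
  have hk3 : k = 3 := by
    by_contra hne
    have := A1b_comm k (by omega) hc ⟨a, haK⟩ ⟨b, hbK⟩
    exact hab (congrArg Subtype.val this)
  subst hk3
  symm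
  apply Subgroup.eq_of_le_of_card_ge hle
  rw [hR, hc]
  norm_num

end Cfsg.Agent.Lib.Helper99.X3
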