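import Cfsg.Agent.Lib.Helper99.X3.Defs
import Cfsg.Agent.Lib.Helper22.X3.A1b

set_option autoImplicit false
open scoped MatrixGroups

namespace Cfsg.Agent.Lib.Helper99.X3

theorem A1a {G : Type*} [Group G] (R : Subgroup G) (hR : Nat.card R = 27) (hRna : ¬ IsMulCommutative R) :
    ∃ a b z : G, a ∈ R ∧ b ∈ R ∧ z ∈ R ∧ z ≠ 1 ∧ a * b = z * (b * a) ∧ z * a = a * z ∧ z * b = b * z := by
  have : Fact (Nat.Prime 3) := ⟨Nat.prime_three⟩
  have : Finite R := Nat.finite_of_card_ne_zero (by rw [hR]; norm_num)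
  have hp : IsPGroup 3 R := IsPGroup.of_card (n := 3) (by rw [hR]; norm_num)
  have : Nontrivial R := by
    rw [← Finite.one_lt_card_iff_nontrivial, hR]; norm_num
  have hZ : Nontrivial (Subgroup.center R) := hp.center_nontrivial
  have hmul := Subgroup.card_eq_card_quotient_mul_card_subgroup (Subgroup.center R)
  have hd : Nat.card (R ⧸ Subgroup.center R) ∣ 3 ^ 3 := by
    rw [hR] at hmul
    exact ⟨_, by rw [← hmul]; norm_num⟩
  obtain ⟨k, hk, hc⟩ := (Nat.dvd_prime_pow Nat.prime_three).1 hd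
  have hk2 : k ≤ 2 := by
    by_contra hne
    have hk3 : k = 3 := by omega
    subst hk3
    rw [hR, hc] at hmul
    have h1 : Nat.card (Subgroup.center R) = 1 := by omega
    have h2 := Finite.one_lt_card_iff_nontrivial.2 hZ
    omega
  obtain ⟨a, b, hab⟩ : ∃ a b : R, a * b ≠ b * a := by
    by_contra hcon
    push Not at hcon
    exact hRna ⟨⟨hcon⟩⟩
  have hz : a * b * (b * a)⁻¹ ∈ Subgroup.center R := by
    rw [← QuotientGroup.eq_one_iff]
    have := A1b_comm k hk2 hc (a : R ⧸ Subgroup.center R) (b : R ⧸ Subgroup.center R)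
    rw [QuotientGroup.mk_mul, QuotientGroup.mk_inv, QuotientGroup.mk_mul, QuotientGroup.mk_mul, this,
      mul_inv_cancel]
  rw [Subgroup.mem_center_iff] at hz
  refine ⟨a, b, (a * b * (b * a)⁻¹ : R), a.2, b.2, (a * b * (b * a)⁻¹ : R).2, ?_, ?_, ?_, ?_⟩
  · intro h
    have h' : a * b * (b * a)⁻¹ = 1 := Subtype.ext h
    exact hab (mul_inv_eq_one.1 h')
  · have : a * b = a * b * (b * a)⁻¹ * (b * a) := by group
    exact congrArg Subtype.val this
  · exact (congrArg Subtype.val (hz a)).symm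
  · exact (congrArg Subtype.val (hz b)).symm

end Cfsg.Agent.Lib.Helper99.X3
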