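import Cfsg.Agent.Lib.Helper99.X3.Defs

set_option autoImplicit false
open scoped MatrixGroups

namespace Cfsg.Agent.Lib.Helper99.X3

theorem C1_arith (r : ℕ) (hr : r.Prime) (hr2 : r ≠ 2) (hr3 : r ≠ 3) (c : ℕ) (hc : c ∣ 27)
    (hc1 : c ≠ 1) (h : 27 ≡ c [MOD r]) : c = 27 := by
  have h23 : ∀ a b : ℕ, ¬ r ∣ 2 ^ a * 3 ^ b := by
    intro a b hd
    rcases (Nat.Prime.dvd_mul hr).1 hd with h1 | h1
    · exact hr2 ((Nat.prime_dvd_prime_iff_eq hr Nat.prime_two).1 (hr.dvd_of_dvd_pow h1))
    · exact hr3 ((Nat.prime_dvd_prime_iff_eq hr Nat.prime_three).1 (hr.dvd_of_dvd_pow h1))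
  obtain ⟨k, hk, rfl⟩ := (Nat.dvd_prime_pow Nat.prime_three).1 (show c ∣ 3 ^ 3 by simpa using hc)
  interval_cases k
  · simp at hc1
  · exfalso
    have := (Nat.modEq_iff_dvd' (by norm_num)).1 h.symm
    exact h23 3 1 (by simpa using this)
  · exfalso
    have := (Nat.modEq_iff_dvd' (by norm_num)).1 h.symm
    exact h23 1 2 (by simpa using this)
  · norm_num

theorem C1 {G : Type*} [Group G] (R : Subgroup G) (hR : Nat.card R = 27) (y z : G)
    (hy : y ∈ Subgroup.normalizer (R : Set G)) (r : ℕ) [Fact r.Prime] (hr2 : r ≠ 2) (hr3 : r ≠ 3)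
    (hyr : y ^ r = 1) (hz : z ∈ R) (hz1 : z ≠ 1) (hzy : z * y = y * z) : ∀ g ∈ R, g * y = y * g := by
  classical
  have : Finite R := Nat.finite_of_card_ne_zero (by rw [hR]; norm_num)
  let _ : Fintype R := Fintype.ofFinite R
  have hy' : ∀ g ∈ R, y * g * y⁻¹ ∈ R := fun g hg => (Subgroup.mem_normalizer_iff.1 hy g).1 hg
  let f : Function.End R := fun g => ⟨y * g * y⁻¹, hy' g g.2⟩
  have hf : ∀ k : ℕ, ∀ g : R, (((f ^ k) g : R) : G) = y ^ k * g * (y ^ k)⁻¹ := by
    intro k
    induction k with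
    | zero => intro g; simp; rfl
    | succ k ih =>
      intro g
      rw [pow_succ']
      change y * (((f ^ k) g : R) : G) * y⁻¹ = _
      rw [ih, pow_succ']
      group
  have hfr : f ^ r ^ 1 = 1 := by
    rw [pow_one]
    funext g
    apply Subtype.ext
    rw [hf, hyr]
    simp
    rfl
  have hmod := Equiv.Perm.card_fixedPoints_modEq hfr
  let C : Subgroup R := (Subgroup.centralizer {y}).subgroupOf R
  have hC : ∀ g : R, g ∈ C ↔ (g : G) * y = y * g := by
    intro g
    rw [Subgroup.mem_subgroupOf, Subgroup.mem_centralizer_singleton_iff]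
  have hfix : Function.fixedPoints f = (C : Set R) := by
    ext g
    rw [Function.mem_fixedPoints, SetLike.mem_coe, hC]
    constructor
    · intro h
      have h' : y * (g : G) * y⁻¹ = g := congrArg Subtype.val h
      rw [mul_inv_eq_iff_eq_mul] at h'
      exact h'.symm
    · intro h
      apply Subtype.ext
      change y * (g : G) * y⁻¹ = g
      rw [mul_inv_eq_iff_eq_mul]
      exact h.symm
  have hcard : Fintype.card (Function.fixedPoints f) = Nat.card C := by
    rw [← Nat.card_eq_fintype_card]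
    exact Nat.card_congr (Equiv.setCongr hfix)
  rw [hcard, ← Nat.card_eq_fintype_card, hR] at hmod
  have hdvd : Nat.card C ∣ 27 := by
    rw [← hR]
    exact Subgroup.card_subgroup_dvd_card C
  have hne : Nat.card C ≠ 1 := by
    intro h1
    have hbot := Subgroup.card_eq_one.1 h1
    have hzC : (⟨z, hz⟩ : R) ∈ C := (hC _).2 hzy
    rw [hbot, Subgroup.mem_bot] at hzC
    exact hz1 (congrArg Subtype.val hzC)
  have h27 := C1_arith r Fact.out hr2 hr3 _ hdvd hne hmod
  have htop : C = ⊤ := Subgroup.eq_top_of_card_eq C (by rw [h27, hR])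
  intro g hg
  have : (⟨g, hg⟩ : R) ∈ C := by rw [htop]; trivial
  exact (hC _).1 this

end Cfsg.Agent.Lib.Helper99.X3
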