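import Cfsg.Agent.Lib.Helper99.X3.Defs

set_option autoImplicit false
open scoped MatrixGroups

namespace Cfsg.Agent.Lib.Helper99.X3

theorem E3 (p : ℕ) (h3 : p % 3 = 1) (h9 : p % 9 ≠ 1) : ¬ 81 ∣ p ^ 3 * (p ^ 2 - 1) * (p ^ 3 - 1) := by
  have key : ∀ s : ZMod 81, (s.val % 3 = 1 ∧ s.val % 9 ≠ 1) → s ^ 3 * (s ^ 2 - 1) * (s ^ 3 - 1) ≠ 0 := by
    decide
  intro hd
  have hp : 1 ≤ p := by omega
  have h1 : ((p ^ 3 * (p ^ 2 - 1) * (p ^ 3 - 1) : ℕ) : ZMod 81) = 0 :=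
    (ZMod.natCast_eq_zero_iff _ _).2 hd
  rw [Nat.cast_mul, Nat.cast_mul, Nat.cast_sub (Nat.one_le_pow _ _ hp),
    Nat.cast_sub (Nat.one_le_pow _ _ hp)] at h1
  push_cast at h1
  refine key (p : ZMod 81) ⟨?_, ?_⟩ h1
  · rw [ZMod.val_natCast, Nat.mod_mod_of_dvd _ (by norm_num)]
    exact h3
  · rw [ZMod.val_natCast, Nat.mod_mod_of_dvd _ (by norm_num)]
    exact h9

end Cfsg.Agent.Lib.Helper99.X3
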