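import Cfsg.Agent.Lib.Helper99.X3.Defs

set_option autoImplicit false
open scoped MatrixGroups

namespace Cfsg.Agent.Lib.Helper99.X3

variable {F : Type*} [Field F]

theorem ETA [Fintype F] (h : Fintype.card F % 9 = 1) (z : F) (hz : z ^ 3 = 1) : ∃ η : F, η ^ 3 = z := by
  classical
  have hz0 : z ≠ 0 := by
    rintro rfl
    norm_num at hz
  obtain ⟨m, hm⟩ : ∃ m, Fintype.card Fˣ = 9 * m := by
    rw [Fintype.card_units]
    exact ⟨Fintype.card F / 9, by omega⟩
  obtain ⟨γ, hγ⟩ := IsCyclic.exists_monoid_generator (α := Fˣ)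
  obtain ⟨k, hk⟩ := hγ (Units.mk0 z hz0)
  replace hk : γ ^ k = Units.mk0 z hz0 := hk
  have ho : orderOf γ = 9 * m := by
    rw [← hm, ← Nat.card_eq_fintype_card]
    apply orderOf_eq_card_of_forall_mem_powers hγ
  have hm0 : 0 < m := by
    have : 0 < Fintype.card Fˣ := Fintype.card_pos
    omega
  have h3 : γ ^ (k * 3) = 1 := by
    rw [pow_mul, hk]
    apply Units.ext
    simpa using hz
  have hd : 9 * m ∣ k * 3 := by
    rw [← ho]
    exact orderOf_dvd_of_pow_eq_one h3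
  obtain ⟨j, hj⟩ := hd
  have hk' : k = (m * j) * 3 := by
    have : k * 3 = (m * j * 3) * 3 := by rw [hj]; ring
    omega
  refine ⟨((γ ^ (m * j) : Fˣ) : F), ?_⟩
  have : (γ ^ (m * j)) ^ 3 = Units.mk0 z hz0 := by
    rw [← pow_mul, ← hk', hk]
  have h4 := congrArg Units.val this
  simpa using h4

end Cfsg.Agent.Lib.Helper99.X3
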