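import Cfsg.Agent.Lib.Helper99.X3.Defs

set_option autoImplicit false
open scoped MatrixGroups

namespace Cfsg.Agent.Lib.Helper99.X3

theorem N0 {G : Type*} [Group G] [Finite G] (a b n : G) (ha : n * a * n⁻¹ ∈ Subgroup.closure {a, b})
    (hb : n * b * n⁻¹ ∈ Subgroup.closure {a, b}) :
    n ∈ Subgroup.normalizer ((Subgroup.closure {a, b} : Subgroup G) : Set G) := by
  set K : Subgroup G := Subgroup.closure {a, b} with hK
  have h1 : K ≤ K.comap (MulAut.conj n).toMonoidHom := by
    rw [hK, Subgroup.closure_le]
    intro x hx
    rcases hx with rfl | hx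
    · simpa [MulAut.conj_apply] using ha
    · rw [Set.mem_singleton_iff] at hx
      subst hx
      simpa [MulAut.conj_apply] using hb
  have h2 : K.map (MulAut.conj n).toMonoidHom ≤ K := Subgroup.map_le_iff_le_comap.2 h1
  have h3 : K.map (MulAut.conj n).toMonoidHom = K := by
    apply Subgroup.eq_of_le_of_card_ge h2
    rw [Subgroup.card_map_of_injective (MulAut.conj n).injective]
  rw [Subgroup.mem_normalizer_iff]
  intro h
  constructor
  · intro hh
    have := h1 hh
    simpa [MulAut.conj_apply] using this
  · intro hh
    rw [← h3] at hh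
    obtain ⟨k, hk, e⟩ := hh
    have e' : n * k * n⁻¹ = n * h * n⁻¹ := by simpa [MulAut.conj_apply] using e
    have : k = h := by
      have := mul_right_cancel e'
      exact mul_left_cancel this
    rwa [← this]

end Cfsg.Agent.Lib.Helper99.X3
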