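import Cfsg.Agent.Lib.Helper99.X3.Defs

set_option autoImplicit false
open scoped MatrixGroups

namespace Cfsg.Agent.Lib.Helper99.X3

variable {F : Type*} [Field F]

theorem OM [Fintype F] (h : Fintype.card F % 3 = 1) : ∃ ω : F, ω ≠ 1 ∧ ω ^ 3 = 1 := by
  classical
  have hd : 3 ∣ Fintype.card Fˣ := by
    rw [Fintype.card_units]
    omega
  obtain ⟨u, hu⟩ := exists_prime_orderOf_dvd_card 3 hd
  refine ⟨u, ?_, ?_⟩
  · intro h1
    have : u = 1 := Units.ext h1
    rw [this, orderOf_one] at hu
    norm_num at hu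
  · have := pow_orderOf_eq_one u
    rw [hu] at this
    have h2 := congrArg Units.val this
    simpa using h2

end Cfsg.Agent.Lib.Helper99.X3
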